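import Mathlib
import Cfsg.Agent.H148.Cls.F4I
import Cfsg.Agent.H864.F4.WF4

/-!
# S2451, helper148: type `F4`, `Dis Δ a b ⊆ {1}` : the theorem
-/

set_option autoImplicit false
set_option linter.unusedSectionVars false

namespace Cfsg.Agent.H148.Cls

open Cfsg.Agent.Tits.Core Cfsg.Agent.Tits.Core.Bldg Cfsg.Agent.Tits.Exchange Cfsg.Agent.Tits Cfsg.Agent.FixBN
open Cfsg.Agent.H197.Cls Cfsg.Agent.H330.ClassProd

variable {I : Type*} {M : CoxeterMatrix I} {W : Type*} [Group W] {cs : CoxeterSystem M W} {C : Type*}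
variable {Δ : Bldg cs C} {G : Type*} [Group G] [MulAction G C] {p : ℕ}

/-- **Type `F4`** (`F4(q)`, `2E6(q)`): `Dis Δ a b ⊆ {1}` is impossible if all the products of conjugates are conjugate. -/
theorem type_f4 [Finite I] [Finite W] (S : Sys Δ G p) [F : OppRes.Cox cs] [hp : Fact p.Prime] (hth : Δ.Thick)
    {a b c : G} (hab : Good p a b) (hD : Dis Δ a b ⊆ {1}) (h : AllConj a b c) {i1 i2 i3 i4 : I}
    (m12 : M i1 i2 = 3) (m23 : M i2 i3 = 4) (m34 : M i3 i4 = 3) (m13 : M i1 i3 = 2) (m14 : M i1 i4 = 2)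
    (m24 : M i2 i4 = 2) (hall : ∀ i, i = i1 ∨ i = i2 ∨ i = i3 ∨ i = i4)
    (ha : ∃ x : C, a • x ≠ x) (hb : ∃ x : C, b • x ≠ x) : False :=
  type_f4_of S hth hab hD h ⟨m12, m23, m34, m13, m14, m24, hall⟩
    (H864.F4.Wf.w0_four cs m12 m23 m34 m13 m14 m24 hall) ha hb

end Cfsg.Agent.H148.Cls
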